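import Cfsg.Agent.H876.FourEven
import Cfsg.Agent.H876.OddOdd

/-!
# Overgroups of the monomial group of `SU_4(q)`, `q ≥ 5` odd: dihedral arguments
-/

set_option autoImplicit false

namespace Cfsg.Agent.H876.Four

open Cfsg Cfsg.Agent.LieClassical.HermBasic Cfsg.Agent.LieClassical.HermSiegel Cfsg.Agent.H927
open Cfsg.Agent.H876.MonoBasic Cfsg.Agent.H876.OddFrame

variable {F : Type*} [Field F] {q : ℕ}

/-- the element `-1` -/
def IsE (e : SU 4 F q) : Prop := ∀ x, act e x = -x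

theorem IsE.comm {e : SU 4 F q} (he : IsE e) (g : SU 4 F q) : e * g = g * e := by
  apply ext_act
  intro x
  rw [act_mul, act_mul, he, he, show -x = (-1 : F) • x by simp, act_smul]
  simp

theorem IsE.mul_self {e : SU 4 F q} (he : IsE e) : e * e = 1 := by
  apply ext_act
  intro x
  rw [act_mul, he, he, neg_neg, act_one]

theorem IsE.ne_one {e : SU 4 F q} (he : IsE e) (h2 : (2 : F) ≠ 0) : e ≠ 1 := by
  rintro rfl
  have h1 := congrFun (he (Pi.single 0 1)) 0
  rw [act_one, Pi.neg_apply, Pi.single_eq_same] at h1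
  apply h2
  linear_combination h1

theorem IsE.isDiag {e : SU 4 F q} (he : IsE e) : IsDiag e :=
  ⟨fun _ => -1, fun j => by rw [he]; simp⟩

theorem IsE.isB {e b : SU 4 F q} (he : IsE e) {i j k l : Fin 4} (hb : IsB b i j)
    (hij : i ≠ j) (hik : i ≠ k) (hil : i ≠ l) (hjk : j ≠ k) (hjl : j ≠ l) (hkl : k ≠ l) :
    IsB (e * b) k l := by
  intro x m
  rw [act_mul, he, Pi.neg_apply, hb]
  have hm : m = i ∨ m = j ∨ m = k ∨ m = l := by
    have : m ∈ (Finset.univ : Finset (Fin 4)) := Finset.mem_univ m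
    rw [univ_four hij hik hil hjk hjl hkl] at this
    simpa using this
  rcases hm with rfl | rfl | rfl | rfl
  · rw [if_pos (Or.inl rfl), if_neg (by tauto), neg_neg]
  · rw [if_pos (Or.inr rfl), if_neg (by
      rintro (h | h)
      · exact hjk h
      · exact hjl h), neg_neg]
  · rw [if_neg (by
      rintro (h | h)
      · exact hik h.symm
      · exact hjk h.symm), if_pos (Or.inl rfl)]
  · rw [if_neg (by
      rintro (h | h)
      · exact hil h.symm
      · exact hjl h.symm), if_pos (Or.inr rfl)]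

theorem perm_invol : ∀ σ : Equiv.Perm (Fin 4), σ ^ 2 = 1 → ∃ a b c d : Fin 4, a ≠ b ∧ a ≠ c ∧ a ≠ d ∧
    b ≠ c ∧ b ≠ d ∧ c ≠ d ∧ ∀ m, (σ m = a ∨ σ m = b) ↔ (m = a ∨ m = b) := by decide +kernel

section

variable [Fintype F] (hF : Fintype.card F = q ^ 2)
include hF

theorem exists_eps : ∃ e : SU 4 F q, IsE e := by
  obtain ⟨e, he⟩ := exists_dg (F := F) hF (n := 4) (fun _ => -1) (by
    intro i; rw [neg_pow_q hF, one_pow]; ring) (by rw [Fin.prod_univ_four]; ring)
  refine ⟨e, fun x => ?_⟩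
  funext l
  rw [he, Pi.neg_apply]
  ring

variable {X : Subgroup (SU 4 F q)} (hG : ∀ g : SU 4 F q, IsMono g → g ∈ X)
  (hstar : ∀ y ∈ X, ∀ (k : Fin 4) (c : F), act y (Pi.single k 1) = c • Pi.single k 1 → IsMono y)
  (h2 : (2 : F) ≠ 0)
include hG hstar h2

/-- (U) for `n = 4`. -/
theorem mono_of_conj4 (hq : 4 ≤ q) {g b : SU 4 F q} (hg : g ∈ X) {i j : Fin 4} (hij : i ≠ j)
    (hb : IsB b i j) (hm : IsMono (g⁻¹ * b * g)) : IsMono g := by
  classical
  by_contra hgm
  have hz := zero_free hF hG hstar hq hg hgm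
  obtain ⟨s, hs⟩ : ∃ s, s = g⁻¹ * b * g := ⟨_, rfl⟩
  rw [← hs] at hm
  obtain ⟨σ, e, he0, he⟩ := IsMono.exists_perm hm
  have hss : s ^ 2 = 1 := by
    have h3 := hb.mul_self
    rw [pow_two, hs]
    calc g⁻¹ * b * g * (g⁻¹ * b * g) = g⁻¹ * (b * b) * g := by group
      _ = 1 := by rw [h3]; group
  have hσ : σ ^ 2 = 1 := perm_pow_eq_one he0 he (by
    rw [hss]; exact ⟨fun _ => 1, fun j => by rw [act_one, one_smul]⟩)
  obtain ⟨m₁, m₂, m₃, m₄, n1, n2, n3, n4, n5, n6, hinv⟩ := perm_invol σ hσ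
  obtain ⟨a, ha, ha4⟩ := exists_fourth hF hq
  obtain ⟨D, hD⟩ := exists_dg hF (n := 4) (fun m => if m = m₁ ∨ m = m₂ then a else a ^ q) (by
    intro m
    split_ifs
    · exact ha
    · rw [pow_q_pow_q hF, mul_comm]; exact ha) (by
    rw [prod_four n1 n2 n3 n4 n5 n6, if_pos (Or.inl rfl), if_pos (Or.inr rfl), if_neg (by
      rintro (h | h)
      · exact n2 h.symm
      · exact n4 h.symm), if_neg (by
      rintro (h | h)
      · exact n3 h.symm
      · exact n5 h.symm)]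
    linear_combination (a * a ^ q + 1) * ha)
  obtain ⟨δ, hδ⟩ : ∃ δ : Fin 4 → F, δ = fun m => if m = m₁ ∨ m = m₂ then a else a ^ q := ⟨_, rfl⟩
  rw [← hδ] at hD
  have hδσ : ∀ m, δ (σ m) = δ m := by
    intro m
    rw [hδ]
    simp only [hinv]
  have hDs : D * s = s * D := by
    apply ext_act
    intro x
    funext l
    obtain ⟨m, rfl⟩ := σ.surjective l
    rw [act_mul, act_mul, hD, act_perm_apply he, act_perm_apply he, hD, hδσ]
    ring
  have hDX : D ∈ X := hG D hD.isMono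
  obtain ⟨D₁, hD₁⟩ : ∃ D₁, D₁ = g * D * g⁻¹ := ⟨_, rfl⟩
  have hD₁X : D₁ ∈ X := by rw [hD₁]; exact X.mul_mem (X.mul_mem hg hDX) (X.inv_mem hg)
  have hD₁b : D₁ * b = b * D₁ := by
    have h3 : b = g * s * g⁻¹ := by rw [hs]; group
    rw [h3, hD₁]
    calc g * D * g⁻¹ * (g * s * g⁻¹) = g * (D * s) * g⁻¹ := by group
      _ = g * (s * D) * g⁻¹ := by rw [hDs]
      _ = g * s * g⁻¹ * (g * D * g⁻¹) := by group
  have hD₁act : ∀ x, act b (act D₁ x) = act D₁ (act b x) := by
    intro x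
    rw [← act_mul, ← act_mul, hD₁b]
  obtain ⟨k, l, k1, k2, k3, k4, k5⟩ := exists_two_others hij
  have hD₁m : IsMono D₁ := by
    by_contra hnm
    apply zero_free hF hG hstar hq hD₁X hnm i k
    have h3 := hD₁act (Pi.single k 1)
    have h4 : act b (Pi.single k 1) = Pi.single k 1 := by
      rw [hb.single, if_neg (by
        rintro (h | h)
        · exact k1 h.symm
        · exact k3 h.symm), one_smul]
    rw [h4] at h3
    have h5 := congrFun h3 i
    rw [hb, if_pos (Or.inl rfl)] at h5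
    have h6 : (2 : F) * act D₁ (Pi.single k 1) i = 0 := by linear_combination -h5
    exact (mul_eq_zero.1 h6).resolve_left h2
  obtain ⟨τ, f, hf0, hf⟩ := IsMono.exists_perm hD₁m
  have hτ : ∀ m, m = i ∨ m = j → τ m = i ∨ τ m = j := by
    intro m hmij
    have h3 := hD₁act (Pi.single m 1)
    rw [hb.single, if_pos hmij, act_smul, hf, act_smul, hb.single] at h3
    by_contra hcon
    rw [if_neg hcon] at h3
    have h5 := congrFun h3 (τ m)
    simp only [Pi.smul_apply, Pi.single_eq_same, smul_eq_mul] at h5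
    have h6 : (2 : F) * f m = 0 := by linear_combination h5
    exact (mul_ne_zero h2 (hf0 m)) h6
  have hrel : ∀ m i', δ m * ent g (τ i') m = f i' * ent g i' m := by
    intro m i'
    have h3 : act D₁ (act g (Pi.single m 1)) = δ m • act g (Pi.single m 1) := by
      rw [hD₁, act_mul, act_mul, act_inv_act, hD.single, act_smul]
    have h4 := congrFun h3 (τ i')
    rw [act_perm_apply hf, Pi.smul_apply, smul_eq_mul] at h4
    exact h4.symm
  have hδ1 : δ m₁ = a := by rw [hδ]; exact if_pos (Or.inl rfl)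
  have hδ3 : δ m₃ = a ^ q := by
    rw [hδ]
    exact if_neg (by
      rintro (h | h)
      · exact n2 h.symm
      · exact n4 h.symm)
  have hfin : (δ m₁) ^ 2 = (δ m₃) ^ 2 → False := by
    intro h
    rw [hδ1, hδ3] at h
    apply ha4
    linear_combination a ^ 2 * h + (a * a ^ q + 1) * ha
  rcases hτ i (Or.inl rfl) with h | h
  · have h3 : ∀ m, δ m = f i := by
      intro m
      have h4 := hrel m i
      rw [h] at h4
      exact mul_right_cancel₀ (hz i m) h4
    exact hfin (by rw [h3, h3])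
  · have hj : τ j = i := by
      rcases hτ j (Or.inr rfl) with h' | h'
      · exact h'
      · exact absurd (τ.injective (h.trans h'.symm)) hij
    have h3 : ∀ m, δ m ^ 2 = f i * f j := by
      intro m
      have h4 := hrel m i
      have h5 := hrel m j
      rw [h] at h4
      rw [hj] at h5
      have h6 : (δ m ^ 2 - f i * f j) * ent g j m = 0 := by
        linear_combination δ m * h4 + f i * h5
      exact sub_eq_zero.1 ((mul_eq_zero.1 h6).resolve_right (hz j m))
    exact hfin (by rw [h3, h3])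

/-- a monomial reflection of the dihedral group is diagonal -/
theorem dih_diag (hq : 4 ≤ q) {g b b0 : SU 4 F q} (hg : g ∈ X) {i j k l : Fin 4} (hij : i ≠ j)
    (hkl : k ≠ l) (hb : IsB b i j) (hb0 : IsB b0 k l) (r : ℕ)
    (hm : IsMono (b * (b * (g * b0 * g⁻¹)) ^ r)) : IsDiag (b * (b * (g * b0 * g⁻¹)) ^ r) := by
  obtain ⟨b', hb'⟩ : ∃ b', b' = g * b0 * g⁻¹ := ⟨_, rfl⟩
  rw [← hb'] at hm ⊢
  have hbb := hb.mul_self
  have hbb' : b' * b' = 1 := by
    rw [hb']
    have h3 := hb0.mul_self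
    calc g * b0 * g⁻¹ * (g * b0 * g⁻¹) = g * (b0 * b0) * g⁻¹ := by group
      _ = 1 := by rw [h3]; group
  have hbX : b ∈ X := hG b hb.isDiag.isMono
  have hb0X : b0 ∈ X := hG b0 hb0.isDiag.isMono
  have hb'X : b' ∈ X := by rw [hb']; exact X.mul_mem (X.mul_mem hg hb0X) (X.inv_mem hg)
  have hwX : b * b' ∈ X := X.mul_mem hbX hb'X
  obtain ⟨t, ht⟩ := dih_conj hbb hbb' r
  have hwt : (b * b') ^ t ∈ X := X.pow_mem hwX t
  rcases ht with ht | ht
  · rw [ht] at hm ⊢
    exact isDiag_conj hb.isDiag (mono_of_conj4 hF hG hstar h2 hq hwt hij hb hm)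
  · have h5 : ((b * b') ^ t)⁻¹ * b' * (b * b') ^ t =
        (g⁻¹ * (b * b') ^ t)⁻¹ * b0 * (g⁻¹ * (b * b') ^ t) := by
      generalize (b * b') ^ t = u
      rw [hb']; group
    rw [ht, h5] at hm
    rw [ht, h5]
    exact isDiag_conj hb0.isDiag (mono_of_conj4 hF hG hstar h2 hq (X.mul_mem (X.inv_mem hg) hwt)
      hkl hb0 hm)

theorem dih_diag' (hq : 4 ≤ q) {g b b0 : SU 4 F q} (hg : g ∈ X) {i j k l : Fin 4} (hij : i ≠ j)
    (hkl : k ≠ l) (hb : IsB b i j) (hb0 : IsB b0 k l) (r : ℕ)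
    (hm : IsMono (g⁻¹ * (b * (b * (g * b0 * g⁻¹)) ^ r) * g)) :
    IsDiag (g⁻¹ * (b * (b * (g * b0 * g⁻¹)) ^ r) * g) := by
  obtain ⟨b', hb'⟩ : ∃ b', b' = g * b0 * g⁻¹ := ⟨_, rfl⟩
  rw [← hb'] at hm ⊢
  have hbb := hb.mul_self
  have hbb' : b' * b' = 1 := by
    rw [hb']
    have h3 := hb0.mul_self
    calc g * b0 * g⁻¹ * (g * b0 * g⁻¹) = g * (b0 * b0) * g⁻¹ := by group
      _ = 1 := by rw [h3]; group
  have hbX : b ∈ X := hG b hb.isDiag.isMono
  have hb0X : b0 ∈ X := hG b0 hb0.isDiag.isMono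
  have hb'X : b' ∈ X := by rw [hb']; exact X.mul_mem (X.mul_mem hg hb0X) (X.inv_mem hg)
  have hwX : b * b' ∈ X := X.mul_mem hbX hb'X
  obtain ⟨t, ht⟩ := dih_conj hbb hbb' r
  have hwt : (b * b') ^ t ∈ X := X.pow_mem hwX t
  rcases ht with ht | ht
  · have e2 : g⁻¹ * (b * (b * b') ^ r) * g = ((b * b') ^ t * g)⁻¹ * b * ((b * b') ^ t * g) := by
      rw [ht]; group
    rw [e2] at hm ⊢
    exact isDiag_conj hb.isDiag (mono_of_conj4 hF hG hstar h2 hq (X.mul_mem hwt hg) hij hb hm)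
  · have e2 : g⁻¹ * (b * (b * b') ^ r) * g = (g⁻¹ * (b * b') ^ t * g)⁻¹ * b0 * (g⁻¹ * (b * b') ^ t * g) := by
      rw [ht]
      generalize (b * b') ^ t = u
      rw [hb']; group
    rw [e2] at hm ⊢
    exact isDiag_conj hb0.isDiag (mono_of_conj4 hF hG hstar h2 hq
      (X.mul_mem (X.mul_mem (X.inv_mem hg) hwt) hg) hkl hb0 hm)

/-- (O) for `n = 4` -/
theorem odd_order4 (hq : 4 ≤ q) {g b b0 e : SU 4 F q} (hg : g ∈ X) (hgm : ¬ IsMono g)
    {i j k l : Fin 4} (hij : i ≠ j) (hkl : k ≠ l) (hb : IsB b i j) (hb0 : IsB b0 k l) (he : IsE e) :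
    ∃ M, Odd M ∧ ((b * (g * b0 * g⁻¹)) ^ M = 1 ∨ (b * (g * b0 * g⁻¹)) ^ M = e) := by
  classical
  have hdd := dih_diag hF hG hstar h2 hq hg hij hkl hb hb0
  have hdd' := dih_diag' hF hG hstar h2 hq hg hij hkl hb hb0
  obtain ⟨b', hb'⟩ : ∃ b', b' = g * b0 * g⁻¹ := ⟨_, rfl⟩
  rw [← hb'] at hdd hdd' ⊢
  have hbb := hb.mul_self
  have hbb' : b' * b' = 1 := by
    rw [hb']
    have h3 := hb0.mul_self
    calc g * b0 * g⁻¹ * (g * b0 * g⁻¹) = g * (b0 * b0) * g⁻¹ := by group
      _ = 1 := by rw [h3]; group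
  have hbX : b ∈ X := hG b hb.isDiag.isMono
  have hb0X : b0 ∈ X := hG b0 hb0.isDiag.isMono
  have hb'X : b' ∈ X := by rw [hb']; exact X.mul_mem (X.mul_mem hg hb0X) (X.inv_mem hg)
  have hwX : b * b' ∈ X := X.mul_mem hbX hb'X
  by_cases hodd : Odd (orderOf (b * b'))
  · exact ⟨_, hodd, Or.inl (pow_orderOf_eq_one _)⟩
  rw [Nat.not_odd_iff_even] at hodd
  obtain ⟨m, hm⟩ := hodd
  have hpos : 0 < orderOf (b * b') := orderOf_pos _
  obtain ⟨z, hz⟩ : ∃ z, z = (b * b') ^ m := ⟨_, rfl⟩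
  have hz1 : z ≠ 1 := by
    rw [hz]
    exact pow_ne_one_of_lt_orderOf (by omega) (by omega)
  have hzz : z * z = 1 := by
    rw [hz, ← pow_add, ← hm, pow_orderOf_eq_one]
  have hzi : z⁻¹ = z := inv_eq_of_mul_eq_one_left hzz
  have hzX : z ∈ X := by rw [hz]; exact X.pow_mem hwX m
  have hzb : b * z = z * b := by
    have h3 := dih_key hbb hbb' m
    rw [← hz, hzi] at h3
    exact h3
  have hzw : (b * b') * z = z * (b * b') := by
    rw [hz]; exact ((Commute.refl (b * b')).pow_right m).eq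
  have hzb' : b' * z = z * b' := by
    have h3 : b' = b * (b * b') := by rw [← mul_assoc, hbb, one_mul]
    calc b' * z = b * (b * b') * z := by rw [← h3]
      _ = b * (z * (b * b')) := by rw [mul_assoc, hzw]
      _ = z * b * (b * b') := by rw [← mul_assoc, hzb]
      _ = z * b' := by rw [mul_assoc, ← h3]
  have hzm : IsMono z := by
    apply mono_of_conj4 hF hG hstar h2 hq hzX hij hb
    have h3 : z⁻¹ * b * z = b := by rw [mul_assoc, hzb, ← mul_assoc, inv_mul_cancel, one_mul]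
    rw [h3]; exact hb.isDiag.isMono
  obtain ⟨z', hz'⟩ : ∃ z', z' = g⁻¹ * z * g := ⟨_, rfl⟩
  have hz'X : z' ∈ X := by rw [hz']; exact X.mul_mem (X.mul_mem (X.inv_mem hg) hzX) hg
  have hz'm : IsMono z' := by
    apply mono_of_conj4 hF hG hstar h2 hq hz'X hkl hb0
    have h3 : z'⁻¹ * b0 * z' = b0 := by
      have h5 : z⁻¹ * b' * z = b' := by rw [mul_assoc, hzb', ← mul_assoc, inv_mul_cancel, one_mul]
      have h6 : z'⁻¹ * b0 * z' = g⁻¹ * (z⁻¹ * (g * b0 * g⁻¹) * z) * g := by rw [hz']; group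
      rw [h6, ← hb', h5, hb']; group
    rw [h3]; exact hb0.isDiag.isMono
  have hzd : IsDiag z := by
    have h4 := hdd m
    rw [← hz] at h4
    have h5 : z = b * (b * z) := by rw [← mul_assoc, hbb, one_mul]
    rw [h5]
    exact hb.isDiag.mul (h4 (IsMono.mul hb.isDiag.isMono hzm))
  have hzd' : IsDiag z' := by
    have e0 : b0 * z' = g⁻¹ * (b' * z) * g := by rw [hz', hb']; group
    have e1 : b' * z = b * (b * b') ^ (m + 1) := by
      rw [hz, pow_succ', ← mul_assoc, ← mul_assoc, hbb, one_mul]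
    have h4 := hdd' (m + 1)
    rw [← e1, ← e0] at h4
    have hbb0 := hb0.mul_self
    have h5 : z' = b0 * (b0 * z') := by rw [← mul_assoc, hbb0, one_mul]
    rw [h5]
    exact hb0.isDiag.mul (h4 (IsMono.mul hb0.isDiag.isMono hz'm))
  have hzf := zero_free hF hG hstar hq hg hgm
  obtain ⟨ζ, hζ⟩ := exists_dg_of_isDiag hzd
  obtain ⟨ζ', hζ'⟩ := exists_dg_of_isDiag hzd'
  have hζeq : ∀ a c, ζ a = ζ' c := by
    intro a c
    have h3 : act z (act g (Pi.single c 1)) = act g (act z' (Pi.single c 1)) := by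
      rw [hz', act_mul, act_mul, act_act_inv]
    have h4 := congrFun h3 a
    rw [hζ, hζ'.single, act_smul, Pi.smul_apply, smul_eq_mul] at h4
    exact mul_right_cancel₀ (hzf a c) h4
  have hζ2 : ζ 0 = 1 ∨ ζ 0 = -1 := by
    have h3 : act (z * z) (Pi.single 0 1) = Pi.single 0 1 := by rw [hzz, act_one]
    have h4 := congrFun h3 0
    rw [act_mul, hζ, hζ, Pi.single_eq_same] at h4
    exact mul_self_eq_one_iff.1 (by linear_combination h4)
  have hze : z = e := by
    rcases hζ2 with h3 | h3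
    · exfalso
      apply hz1
      apply ext_act
      intro x
      funext a
      rw [hζ, hζeq a 0, ← hζeq 0 0, h3, one_mul, act_one]
    · apply ext_act
      intro x
      funext a
      rw [hζ, hζeq a 0, ← hζeq 0 0, h3, he, Pi.neg_apply, neg_one_mul]
  by_cases hmo : Odd m
  · exact ⟨m, hmo, Or.inr (by rw [← hz, hze])⟩
  exfalso
  rw [Nat.not_odd_iff_even] at hmo
  obtain ⟨r, hr⟩ := hmo
  obtain ⟨v, hv⟩ : ∃ v, v = (b * b') ^ r := ⟨_, rfl⟩
  have hvX : v ∈ X := by rw [hv]; exact X.pow_mem hwX r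
  have hvv : v * v = e := by rw [hv, ← pow_add, ← hr, ← hz, hze]
  have hbv : b * v = v⁻¹ * b := by rw [hv]; exact dih_key hbb hbb' r
  have hvi : v⁻¹ = e * v := by
    apply inv_eq_of_mul_eq_one_left
    rw [mul_assoc, hvv, he.mul_self]
  have hv0 : ent v i i = 0 := by
    have h3 : act b (act v (Pi.single i 1)) = act v (Pi.single i 1) := by
      rw [← act_mul, hbv, hvi, act_mul, act_mul, he, hb.single, if_pos (Or.inl rfl), neg_one_smul,
        OddOdd.act_neg, neg_neg]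
    have h4 := congrFun h3 i
    rw [hb, if_pos (Or.inl rfl)] at h4
    have h6 : (2 : F) * act v (Pi.single i 1) i = 0 := by linear_combination -h4
    exact (mul_eq_zero.1 h6).resolve_left h2
  have hvm : IsMono v := by
    by_contra hnm
    exact zero_free hF hG hstar hq hvX hnm i i hv0
  have hvd : IsDiag v := by
    have h4 := hdd r
    rw [← hv] at h4
    have h5 : v = b * (b * v) := by rw [← mul_assoc, hbb, one_mul]
    rw [h5]
    exact hb.isDiag.mul (h4 (IsMono.mul hb.isDiag.isMono hvm))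
  obtain ⟨β, hβ⟩ := exists_dg_of_isDiag hvd
  have hcomm : b * v = v * b := by
    apply ext_act
    intro x
    funext a
    rw [act_mul, act_mul, hb, hβ, hβ, hb]
    split_ifs <;> ring
  rw [hcomm] at hbv
  have h3 : v = v⁻¹ := mul_right_cancel hbv
  apply he.ne_one h2
  rw [← hvv]
  conv_lhs => arg 1; rw [h3]
  exact inv_mul_cancel v

end

end Cfsg.Agent.H876.Four
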