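import Cfsg.Agent.H876.TwoFrame
import Cfsg.Agent.H876.FourEven

/-!
# Overgroups of the monomial group of `SU_4(2)`
-/

set_option autoImplicit false

namespace Cfsg.Agent.H876.Four

open Cfsg Cfsg.Agent.LieClassical.HermBasic Cfsg.Agent.LieClassical.HermSiegel Cfsg.Agent.H927
open Cfsg.Agent.H876.EvenFrame Cfsg.Agent.H876.TwoFrame

variable {F : Type*} [Field F] {X : Subgroup (SU 4 F 2)}

section

variable [Fintype F] (hF : Fintype.card F = 2 ^ 2)
include hF

/-- monomial elements are transitive, up to scalars, on vectors without zero coordinates. -/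
theorem exists_mono_map_full {v v' : Fin 4 → F} (hv : ∀ i, v i ≠ 0) (hv' : ∀ i, v' i ≠ 0) :
    ∃ g : SU 4 F 2, IsMono g ∧ ∃ c : F, c ≠ 0 ∧ act g v = c • v' := by
  classical
  obtain ⟨P, hP⟩ : ∃ P, P = ∏ i, v' i / v i := ⟨_, rfl⟩
  have hP0 : P ≠ 0 := by
    rw [hP]; exact Finset.prod_ne_zero_iff.2 fun i _ => div_ne_zero (hv' i) (hv i)
  have hc0 : P⁻¹ ≠ 0 := inv_ne_zero hP0
  obtain ⟨g, hg⟩ := exists_dg hF (n := 4) (fun i => P⁻¹ * (v' i / v i))
    (fun i => norm_one hF (mul_ne_zero hc0 (div_ne_zero (hv' i) (hv i)))) (by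
    rw [Finset.prod_mul_distrib, Finset.prod_const, Finset.card_univ, Fintype.card_fin, ← hP]
    have h1 := norm_one hF hc0
    have h2 : P⁻¹ ^ 4 = P⁻¹ := by linear_combination P⁻¹ * h1
    rw [h2, inv_mul_cancel₀ hP0])
  refine ⟨g, hg.isMono, P⁻¹, hc0, ?_⟩
  funext i
  rw [hg, Pi.smul_apply, smul_eq_mul, mul_assoc, div_mul_cancel₀ _ (hv i)]

variable (hG : ∀ g : SU 4 F 2, IsMono g → g ∈ X)
include hG

/-- all isotropic vectors. -/
theorem all_tx_four (hX : ∃ g ∈ X, ¬ IsMono g) (x : Fin 4 → F) (hx : hermForm 4 F 2 x x = 0) : TX X x := by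
  classical
  have h2 := two_eq_zero hF
  have hfull : ∀ {v : Fin 4 → F}, 3 ≤ (supp v).card → Even (supp v).card → ∀ i, v i ≠ 0 := by
    intro v h3 hev i
    have h4 : (supp v).card = 4 := by
      have := Finset.card_le_univ (supp v)
      rw [Fintype.card_fin] at this
      obtain ⟨m, hm⟩ := hev
      omega
    have h1 : supp v = Finset.univ := by
      apply Finset.eq_univ_of_card
      rw [Fintype.card_fin, h4]
    exact mem_supp.1 (by rw [h1]; exact Finset.mem_univ i)
  have hev := (iso_iff hF x).1 hx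
  obtain ⟨m, hm⟩ : ∃ m, m = (supp x).card := ⟨_, rfl⟩
  rw [← hm] at hev
  rcases Nat.lt_or_ge m 1 with h0 | h1
  · have hx0 : x = 0 := by
      funext i
      by_contra h
      have h3 : i ∈ supp x := mem_supp.2 h
      have h4 := Finset.card_pos.2 ⟨i, h3⟩
      omega
    subst hx0
    refine ⟨hx, 1, X.one_mem, fun y => ?_⟩
    rw [act_one, smul_zero, add_zero]
  rcases Nat.lt_or_ge m 3 with h3 | h3
  · have hm2 : (supp x).card = 2 := by
      obtain ⟨l, hl⟩ := hev; omega
    obtain ⟨i, j, hij, hs⟩ := Finset.card_eq_two.1 hm2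
    have hxi : x i ≠ 0 := mem_supp.1 (by rw [hs]; simp)
    have hxj : x j ≠ 0 := mem_supp.1 (by rw [hs]; simp)
    have h5 := (tx_pair hF h2 hG hij (norm_one hF (div_ne_zero hxj hxi))).smul (norm_one hF hxi)
    have h7 : x i • (Pi.single i 1 + (x j / x i) • Pi.single j (1 : F)) = x := by
      funext l
      simp only [Pi.smul_apply, Pi.add_apply, smul_eq_mul]
      by_cases hli : l = i
      · subst hli
        rw [Pi.single_eq_same, Pi.single_eq_of_ne hij]; ring
      by_cases hlj : l = j
      · subst hlj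
        rw [Pi.single_eq_same, Pi.single_eq_of_ne hli]
        field_simp
        ring
      rw [Pi.single_eq_of_ne hli, Pi.single_eq_of_ne hlj]
      have : x l = 0 := by
        by_contra h
        have := mem_supp.2 h
        rw [hs, Finset.mem_insert, Finset.mem_singleton] at this
        rcases this with h | h
        · exact hli h
        · exact hlj h
      rw [this]; ring
    rwa [h7] at h5
  · obtain ⟨v, hv, hv3⟩ := exists_three hF h2 hG le_rfl hX
    have hvf := hfull hv3 ((iso_iff hF v).1 hv.iso)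
    have hxf := hfull (v := x) (by omega) (by rw [← hm]; exact hev)
    obtain ⟨g, hg, c, hc0, hgv⟩ := exists_mono_map_full hF hvf hxf
    have h5 := (hv.map (hG g hg)).smul (norm_one hF (inv_ne_zero hc0))
    rwa [hgv, smul_smul, inv_mul_cancel₀ hc0, one_smul] at h5

/-- **Overgroups of the monomial group**: `n = 4`, `q = 2`. -/
theorem eq_top_four_two (hX : ∃ g ∈ X, ¬ IsMono g) : X = ⊤ := by
  have h2 := two_eq_zero hF
  rw [eq_top_iff, ← Cfsg.Agent.S0780.result hF 4 (by omega) (by omega), Subgroup.closure_le]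
  rintro B ⟨v, c, hv, hB⟩
  rcases Cfsg.Agent.ClassicalGeometry.UnitTransv.eq_one_or_utv hF hv hB with rfl | ⟨hc0, hc, rfl⟩
  · exact X.one_mem
  · obtain ⟨-, g, hg, hact⟩ := all_tx_four hF hG hX v hv
    by_cases hc00 : c = 0
    · subst hc00
      have h3 : Cfsg.Agent.ClassicalGeometry.UnitTransv.utv hF v 0 hv hc = 1 := by
        apply ext_act
        intro x
        have h1 := Cfsg.Agent.ClassicalGeometry.UnitTransv.act_utv hF hv hc x
        rw [zero_mul, zero_smul, add_zero] at h1
        rw [act_one]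
        exact h1
      rw [SetLike.mem_coe, h3]
      exact X.one_mem
    have hc1 : c = 1 := by
      have h3 : c * (1 + c) = 0 := by linear_combination hc
      have h4 := (mul_eq_zero.1 h3).resolve_left hc00
      linear_combination h4 - h2
    subst hc1
    have h3 : Cfsg.Agent.ClassicalGeometry.UnitTransv.utv hF v 1 hv hc = g := by
      apply ext_act
      intro x
      have h1 := Cfsg.Agent.ClassicalGeometry.UnitTransv.act_utv hF hv hc x
      rw [one_mul] at h1
      rw [hact]
      exact h1
    rw [SetLike.mem_coe, h3]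
    exact hg

end

end Cfsg.Agent.H876.Four
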